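import Cfsg.Statements.S0962
-- import your own Cfsg.Agent.* helpers here
import Mathlib
import Cfsg.Agent.Characters.Core
import Cfsg.Agent.Blocks.Central
import Cfsg.Agent.S0913
import Cfsg.Agent.S0907
import Cfsg.Agent.Blocks.DefectCard

set_option autoImplicit false
open Cfsg

namespace Cfsg.Agent.S0962

open scoped ComplexConjugate

universe u

open Cfsg.Agent.Characters.Core in
theorem orthonormal {G : Type*} [Group G] [Fintype G] (χ ψ : IrrCharacter G) [Decidable (χ = ψ)] :
    (Nat.card G : ℂ)⁻¹ * ∑ g : G, (χ : G → ℂ) g * conj ((ψ : G → ℂ) g) = if χ = ψ then 1 else 0 := by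
  split_ifs with h
  · subst h
    exact classInner_irr_self χ.2
  · exact classInner_irr_ne χ.2 ψ.2 (fun h' => h (Subtype.ext h'))

theorem centralChar_mem {G : Type*} [Group G] [Finite G] (M : Ideal AlgInt) [hM : M.IsPrime]
    (χ : IrrCharacter G) (g : G) : MemLocalRing M (centralChar (χ : G → ℂ) g) :=
  ⟨⟨centralChar (χ : G → ℂ) g, Cfsg.Agent.Blocks.Central.isIntegral_centralChar χ.2 g⟩, 1,
    fun h => hM.ne_top ((Ideal.eq_top_iff_one M).2 h), by simp⟩

section localring

variable {M : Ideal AlgInt} [hMp : M.IsPrime]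

/-- The local ring at `M` inside `ℂ`. -/
def locRing (M : Ideal AlgInt) [hMp : M.IsPrime] : Subring ℂ where
  carrier := {z | MemLocalRing M z}
  zero_mem' := ⟨0, 1, fun h => hMp.ne_top ((Ideal.eq_top_iff_one M).2 h), by simp⟩
  one_mem' := ⟨1, 1, fun h => hMp.ne_top ((Ideal.eq_top_iff_one M).2 h), by simp⟩
  add_mem' := by
    rintro x y ⟨a, b, hb, rfl⟩ ⟨c, d, hd, rfl⟩
    have hb0 : (b : ℂ) ≠ 0 := fun h => hb (by
      have : b = 0 := Subtype.ext h
      rw [this]; exact M.zero_mem)
    have hd0 : (d : ℂ) ≠ 0 := fun h => hd (by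
      have : d = 0 := Subtype.ext h
      rw [this]; exact M.zero_mem)
    refine ⟨a * d + b * c, b * d, fun h => ?_, ?_⟩
    · rcases hMp.mem_or_mem h with h | h
      · exact hb h
      · exact hd h
    · push_cast
      field_simp
  mul_mem' := by
    rintro x y ⟨a, b, hb, rfl⟩ ⟨c, d, hd, rfl⟩
    refine ⟨a * c, b * d, fun h => ?_, ?_⟩
    · rcases hMp.mem_or_mem h with h | h
      · exact hb h
      · exact hd h
    · push_cast
      rw [div_mul_div_comm]
  neg_mem' := by
    rintro x ⟨a, b, hb, rfl⟩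
    exact ⟨-a, b, hb, by push_cast; rw [neg_div]⟩

/-- The maximal ideal of the local ring at `M`. -/
def locIdeal (M : Ideal AlgInt) [hMp : M.IsPrime] : Ideal (locRing M) where
  carrier := {z | MemLocalIdeal M (z : ℂ)}
  zero_mem' := ⟨0, 1, M.zero_mem, fun h => hMp.ne_top ((Ideal.eq_top_iff_one M).2 h), by simp⟩
  add_mem' := by
    rintro ⟨x, hx⟩ ⟨y, hy⟩ ⟨a, b, ha, hb, hab⟩ ⟨c, d, hc, hd, hcd⟩
    have hb0 : (b : ℂ) ≠ 0 := fun h => hb (by
      have : b = 0 := Subtype.ext h
      rw [this]; exact M.zero_mem)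
    have hd0 : (d : ℂ) ≠ 0 := fun h => hd (by
      have : d = 0 := Subtype.ext h
      rw [this]; exact M.zero_mem)
    refine ⟨a * d + b * c, b * d, M.add_mem (M.mul_mem_right _ ha) (M.mul_mem_left _ hc),
      fun h => ?_, ?_⟩
    · rcases hMp.mem_or_mem h with h | h
      · exact hb h
      · exact hd h
    · have hab' : (a : ℂ) / (b : ℂ) = x := hab
      have hcd' : (c : ℂ) / (d : ℂ) = y := hcd
      show _ = x + y
      rw [← hab', ← hcd']
      push_cast
      field_simp
  smul_mem' := by
    rintro ⟨x, hx⟩ ⟨y, hy⟩ ⟨c, d, hc, hd, hcd⟩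
    obtain ⟨a, b, hb, hab⟩ := hx
    refine ⟨a * c, b * d, M.mul_mem_left _ hc, fun h => ?_, ?_⟩
    · rcases hMp.mem_or_mem h with h | h
      · exact hb h
      · exact hd h
    · have hcd' : (c : ℂ) / (d : ℂ) = y := hcd
      show _ = x * y
      rw [← hab, ← hcd']
      push_cast
      rw [div_mul_div_comm]

theorem locIdeal_ne_top : locIdeal M ≠ ⊤ := by
  intro h
  have h1 : (1 : locRing M) ∈ locIdeal M := by rw [h]; trivial
  obtain ⟨a, b, ha, hb, hab⟩ := h1
  have hab' : (a : ℂ) / (b : ℂ) = 1 := hab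
  have hb0 : (b : ℂ) ≠ 0 := fun h => hb (by
      have : b = 0 := Subtype.ext h
      rw [this]; exact M.zero_mem)
  rw [div_eq_one_iff_eq hb0] at hab'
  exact hb (by rw [← Subtype.ext hab']; exact ha)

end localring

section classes

variable {G : Type*} [Group G]

theorem card_filter_mk [Fintype G] [DecidableEq (ConjClasses G)] (g : G) :
    ((Finset.univ.filter fun x : G => ConjClasses.mk x = ConjClasses.mk g).card : ℕ) =
      (Subgroup.centralizer ({g} : Set G)).index := by
  classical
  have h1 : (MulAction.stabilizer (ConjAct G) g).index =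
      (MulAction.orbit (ConjAct G) g).ncard := MulAction.index_stabilizer (ConjAct G) g
  have h2 : (Subgroup.centralizer ({g} : Set G)).index =
      (MulAction.stabilizer (ConjAct G) g).index := by
    rw [Subgroup.centralizer_eq_comap_stabilizer]
    exact Subgroup.index_comap_of_surjective _ (ConjAct.toConjAct (G := G)).surjective
  rw [h2, h1, ConjAct.orbit_eq_carrier_conjClasses]
  rw [Set.ncard_eq_toFinset_card']
  congr 1
  ext x
  simp [ConjClasses.mem_carrier_iff_mk_eq]

theorem sum_index_mul [Fintype G] [Fintype (ConjClasses G)] (f : G → ℂ)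
    (hf : ∀ g h : G, f (h * g * h⁻¹) = f g) :
    ∑ C : ConjClasses G, ((Subgroup.centralizer ({C.out} : Set G)).index : ℂ) * f C.out =
      ∑ g : G, f g := by
  classical
  rw [← Finset.sum_fiberwise Finset.univ (fun g : G => ConjClasses.mk g) f]
  refine Finset.sum_congr rfl fun C _ => ?_
  have hC : ConjClasses.mk C.out = C := Quotient.out_eq C
  have h1 : ∀ x ∈ Finset.univ.filter (fun x : G => ConjClasses.mk x = C), f x = f C.out := by
    intro x hx
    rw [Finset.mem_filter] at hx
    have h2 : ConjClasses.mk C.out = ConjClasses.mk x := by rw [hC, hx.2]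
    rw [ConjClasses.mk_eq_mk_iff_isConj, isConj_iff] at h2
    obtain ⟨c, hc⟩ := h2
    rw [← hc, hf]
  rw [Finset.sum_congr rfl h1, Finset.sum_const, nsmul_eq_mul, ← card_filter_mk C.out, hC]

end classes

theorem sum_centralChar_mul_blockCoeff {G : Type*} [Group G] [Fintype G]
    [Fintype (ConjClasses G)] (B : Set (IrrCharacter G)) (χ : IrrCharacter G)
    [Decidable (χ ∈ B)] :
    ∑ C : ConjClasses G, centralChar (χ : G → ℂ) C.out * blockCoeff B C.out =
      if χ ∈ B then 1 else 0 := by
  classical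
  have := Cfsg.Agent.Characters.Core.finite_irr (G := G)
  have : Fintype (IrrCharacter G) := Fintype.ofFinite _
  have hB : ∀ g : G, blockCoeff B g = (Nat.card G : ℂ)⁻¹ *
      ∑ ψ : IrrCharacter G, if ψ ∈ B then (ψ : G → ℂ) 1 * conj ((ψ : G → ℂ) g) else 0 := by
    intro g
    unfold blockCoeff
    congr 1
    rw [finsum_mem_def, finsum_eq_sum_of_fintype]
    refine Finset.sum_congr rfl fun ψ _ => ?_
    simp only [Set.indicator_apply]
  have h1 : ∀ C : ConjClasses G, centralChar (χ : G → ℂ) C.out * blockCoeff B C.out =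
      ((Subgroup.centralizer ({C.out} : Set G)).index : ℂ) *
        ((χ : G → ℂ) C.out / (χ : G → ℂ) 1 * blockCoeff B C.out) := by
    intro C
    unfold centralChar
    ring
  rw [Finset.sum_congr rfl fun C _ => h1 C]
  rw [sum_index_mul (fun g => (χ : G → ℂ) g / (χ : G → ℂ) 1 * blockCoeff B g)]
  · simp only [hB]
    have h2 : ∀ g : G, (χ : G → ℂ) g / (χ : G → ℂ) 1 * ((Nat.card G : ℂ)⁻¹ *
        ∑ ψ : IrrCharacter G, if ψ ∈ B then (ψ : G → ℂ) 1 * conj ((ψ : G → ℂ) g) else 0) =
        ∑ ψ : IrrCharacter G, (if ψ ∈ B then (ψ : G → ℂ) 1 / (χ : G → ℂ) 1 *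
          ((Nat.card G : ℂ)⁻¹ * ((χ : G → ℂ) g * conj ((ψ : G → ℂ) g))) else 0) := by
      intro g
      rw [Finset.mul_sum, Finset.mul_sum]
      refine Finset.sum_congr rfl fun ψ _ => ?_
      split_ifs
      · ring
      · ring
    simp only [h2]
    rw [Finset.sum_comm]
    have h3 : ∀ ψ : IrrCharacter G, ∑ g : G, (if ψ ∈ B then (ψ : G → ℂ) 1 / (χ : G → ℂ) 1 *
          ((Nat.card G : ℂ)⁻¹ * ((χ : G → ℂ) g * conj ((ψ : G → ℂ) g))) else 0) =
          if ψ = χ then (if χ ∈ B then 1 else 0) else 0 := by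
      intro ψ
      by_cases hψ : ψ ∈ B
      · simp only [hψ, if_true]
        rw [← Finset.mul_sum, ← Finset.mul_sum, orthonormal χ ψ]
        by_cases h : χ = ψ
        · subst h
          simp [hψ, div_self (Cfsg.Agent.Blocks.Central.irr_one_ne_zero χ.2)]
        · rw [if_neg h, if_neg (fun h' => h h'.symm), mul_zero]
      · simp only [hψ, if_false, Finset.sum_const_zero]
        by_cases h : ψ = χ
        · subst h; simp [hψ]
        · simp [h]
    rw [Finset.sum_congr rfl fun ψ _ => h3 ψ, Finset.sum_ite_eq' Finset.univ χ]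
    simp
  · intro g h
    have hcl : ∀ ψ : IrrCharacter G, (ψ : G → ℂ) (h * g * h⁻¹) = (ψ : G → ℂ) g := fun ψ =>
      Cfsg.Agent.Blocks.Central.isClassFunction_of_irr ψ.2 g h
    rw [hcl χ, hB, hB]
    simp only [hcl]

/-- A block which is nonzero at `g` (in the sense that the central characters of its members are
outside the local ideal there) has defect at most that of the class of `g`. -/
theorem blockDefect_le {G : Type*} [Group G] [Finite G] {p : ℕ} {M : Ideal AlgInt}
    (hM : IsPModular p M) (B : Set (IrrCharacter G)) (hne : B.Nonempty) (g : G)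
    (hg : ∀ χ ∈ B, ¬ MemLocalIdeal M (centralChar (χ : G → ℂ) g)) :
    blockDefect p B ≤ (Nat.card (Subgroup.centralizer ({g} : Set G))).factorization p := by
  have hne' : ((fun χ : IrrCharacter G => (charDegree (χ : G → ℂ)).factorization p) '' B).Nonempty :=
    hne.image _
  obtain ⟨χ, hχ, hχe⟩ := Nat.sInf_mem hne'
  have h1 := Cfsg.Agent.Blocks.DefectCard.factorization_index_le hM χ.2 g (hg χ hχ)
  have h2 : (Subgroup.centralizer ({g} : Set G)).index.factorization p ≤
      sInf ((fun χ : IrrCharacter G => (charDegree (χ : G → ℂ)).factorization p) '' B) := by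
    rw [← hχe]
    exact h1
  have hC0 : Nat.card (Subgroup.centralizer ({g} : Set G)) ≠ 0 := Nat.card_pos.ne'
  have hI0 : (Subgroup.centralizer ({g} : Set G)).index ≠ 0 := Subgroup.index_ne_zero_of_finite
  have hfac : (Nat.card G).factorization p =
      (Nat.card (Subgroup.centralizer ({g} : Set G))).factorization p +
        (Subgroup.centralizer ({g} : Set G)).index.factorization p := by
    rw [← (Subgroup.centralizer ({g} : Set G)).card_mul_index, Nat.factorization_mul hC0 hI0]
    rfl
  unfold blockDefect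
  omega

/-- Fix a maximal ideal M of the algebraic integers containing the prime p and a natural number d. The number of blocks of the finite group G of defect at least d is at most the number of conjugacy classes of p-regular elements of G of defect at least d, where the defect of a class is the exponent of p in the order of the centralizer of any of its elements. -/
theorem result {G : Type*} [Group G] [Finite G] (p : ℕ) [Fact p.Prime] (M : Ideal Cfsg.AlgInt) (hM : Cfsg.IsPModular p M) (d : ℕ) : Nat.card {B : Set (Cfsg.IrrCharacter G) // Cfsg.IsPBlock M B ∧ d ≤ Cfsg.blockDefect p B} ≤ Nat.card {C : ConjClasses G // ∃ g : G, ConjClasses.mk g = C ∧ Cfsg.IsPRegular p g ∧ d ≤ (Nat.card (Subgroup.centralizer ({g} : Set G))).factorization p} := by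
  classical
  have : Fintype G := Fintype.ofFinite G
  have := Cfsg.Agent.Characters.Core.finite_irr (G := G)
  have hMp : M.IsPrime := hM.2.1.isPrime
  have : Fintype (ConjClasses G) := Fintype.ofFinite _
  have hsub : ∀ {z w : ℂ}, MemLocalIdeal M z → MemLocalIdeal M w → MemLocalIdeal M (z - w) := by
    intro z w hz hw
    have hz' : MemLocalRing M z := by
      obtain ⟨a, b, _, hb, h⟩ := hz
      exact ⟨a, b, hb, h⟩
    have hw' : MemLocalRing M w := by
      obtain ⟨a, b, _, hb, h⟩ := hw
      exact ⟨a, b, hb, h⟩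
    exact (locIdeal M).sub_mem (a := ⟨z, hz'⟩) (b := ⟨w, hw'⟩) hz hw
  have hzero : MemLocalIdeal M 0 := (locIdeal M).zero_mem
  have hrefl : ∀ χ : IrrCharacter G, χ ∈ blockOf M (χ : G → ℂ) := by
    intro χ g
    rw [sub_self]
    exact hzero
  -- two members of a block have congruent central characters
  have hmem : ∀ B : Set (IrrCharacter G), IsPBlock M B → ∀ χ ∈ B, ∀ ψ ∈ B, ∀ g : G,
      MemLocalIdeal M (centralChar (χ : G → ℂ) g - centralChar (ψ : G → ℂ) g) := by
    rintro B ⟨θ, rfl⟩ χ hχ ψ hψ g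
    have h1 := hsub (hψ g) (hχ g)
    have h2 : centralChar (χ : G → ℂ) g - centralChar (ψ : G → ℂ) g =
      centralChar (θ : G → ℂ) g - centralChar (ψ : G → ℂ) g -
        (centralChar (θ : G → ℂ) g - centralChar (χ : G → ℂ) g) := by ring
    rw [h2]
    exact h1
  have hsubset : ∀ θ θ' χ : IrrCharacter G, χ ∈ blockOf M (θ : G → ℂ) →
      χ ∈ blockOf M (θ' : G → ℂ) → blockOf M (θ : G → ℂ) ⊆ blockOf M (θ' : G → ℂ) := by
    intro θ θ' χ hχ hχ' ψ hψ g
    have h1 := hsub (hχ' g) (hsub (hχ g) (hψ g))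
    have h2 : centralChar (θ' : G → ℂ) g - centralChar (ψ : G → ℂ) g =
      centralChar (θ' : G → ℂ) g - centralChar (χ : G → ℂ) g -
      (centralChar (θ : G → ℂ) g - centralChar (χ : G → ℂ) g -
        (centralChar (θ : G → ℂ) g - centralChar (ψ : G → ℂ) g)) := by ring
    rw [h2]
    exact h1
  have heq : ∀ B B' : Set (IrrCharacter G), IsPBlock M B → IsPBlock M B' → ∀ χ ∈ B, χ ∈ B' →
      B = B' := by
    rintro B B' ⟨θ, rfl⟩ ⟨θ', rfl⟩ χ hχ hχ'
    exact Set.Subset.antisymm (hsubset θ θ' χ hχ hχ') (hsubset θ' θ χ hχ' hχ)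
  set 𝓑 := {B : Set (Cfsg.IrrCharacter G) // Cfsg.IsPBlock M B ∧ d ≤ Cfsg.blockDefect p B}
    with h𝓑
  set 𝓒 := {C : ConjClasses G // ∃ g : G, ConjClasses.mk g = C ∧ Cfsg.IsPRegular p g ∧ d ≤ (Nat.card (Subgroup.centralizer ({g} : Set G))).factorization p}
    with h𝓒
  have : Fintype 𝓑 := Fintype.ofFinite _
  have : Fintype 𝓒 := Fintype.ofFinite _
  have hrep : ∀ B : 𝓑, ∃ χ : IrrCharacter G, χ ∈ B.1 := by
    rintro ⟨B, ⟨χ, hχ⟩, hd⟩
    refine ⟨χ, ?_⟩
    show χ ∈ B
    rw [hχ]
    exact hrefl χ
  choose rep hrep using hrep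
  have hnt : Nontrivial (locRing M ⧸ locIdeal M) :=
    Ideal.Quotient.nontrivial_iff.2 locIdeal_ne_top
  let F := locRing M ⧸ locIdeal M
  let lam : 𝓑 → ConjClasses G → locRing M := fun B C =>
    ⟨centralChar (rep B : G → ℂ) C.out, centralChar_mem M (rep B) C.out⟩
  let co : ConjClasses G → 𝓑 → locRing M := fun C B =>
    ⟨blockCoeff B.1 C.out, Cfsg.Agent.S0913.result p M hM B.1 B.2.1 C.out⟩
  let q : locRing M →+* F := Ideal.Quotient.mk (locIdeal M)
  have hq : ∀ z : locRing M, q z = 0 ↔ MemLocalIdeal M (z : ℂ) := fun z =>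
    Ideal.Quotient.eq_zero_iff_mem
  have key : ∀ B B' : 𝓑, ∑ C : ConjClasses G, q (lam B C) * q (co C B') =
      if B = B' then 1 else 0 := by
    intro B B'
    have h1 : ∑ C : ConjClasses G, lam B C * co C B' = if rep B ∈ B'.1 then 1 else 0 := by
      apply Subtype.ext
      have h2 := sum_centralChar_mul_blockCoeff B'.1 (rep B)
      push_cast
      split_ifs with h
      · rw [if_pos h] at h2
        exact h2
      · rw [if_neg h] at h2
        exact h2
    have h3 : rep B ∈ B'.1 ↔ B = B' := by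
      constructor
      · intro h
        exact Subtype.ext (heq B.1 B'.1 B.2.1 B'.2.1 (rep B) (hrep B) h)
      · rintro rfl
        exact hrep B
    have h4 := congrArg q h1
    rw [map_sum] at h4
    simp only [map_mul] at h4
    rw [h4]
    by_cases h : B = B'
    · rw [if_pos (h3.2 h), if_pos h, map_one]
    · rw [if_neg (fun h' => h (h3.1 h')), if_neg h, map_zero]
  let Λ : Matrix 𝓑 𝓒 F := fun B C => q (lam B C.1)
  let A : Matrix 𝓒 𝓑 F := fun C B => q (co C.1 B)
  have hΛA : Λ * A = 1 := by
    ext B B'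
    rw [Matrix.mul_apply, Matrix.one_apply, ← key B B']
    have h1 : ∑ C ∈ Finset.univ.filter (fun C : ConjClasses G => ∃ g : G, ConjClasses.mk g = C ∧ Cfsg.IsPRegular p g ∧ d ≤ (Nat.card (Subgroup.centralizer ({g} : Set G))).factorization p), q (lam B C) * q (co C B') = ∑ C : ConjClasses G, q (lam B C) * q (co C B') := by
      refine Finset.sum_subset (Finset.subset_univ _) ?_
      intro C _ hC
      by_contra hne
      apply hC
      rw [Finset.mem_filter]
      refine ⟨Finset.mem_univ _, C.out, Quotient.out_eq C, ?_, B.2.2.trans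
        (blockDefect_le hM B.1 ⟨rep B, hrep B⟩ C.out ?_)⟩
      · intro h
        apply hne
        have h6 : blockCoeff B'.1 C.out = 0 := by
          unfold blockCoeff
          rw [Cfsg.Agent.S0907.result p M hM B'.1 B'.2.1 1 C.out (by
            rw [orderOf_one]
            exact fun h => (Fact.out : p.Prime).one_lt.ne' (Nat.dvd_one.1 h)) h, mul_zero]
        have h7 : MemLocalIdeal M ((co C B' : locRing M) : ℂ) := by
          show MemLocalIdeal M (blockCoeff B'.1 C.out)
          rw [h6]
          exact hzero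
        rw [(hq (co C B')).2 h7, mul_zero]
      · intro χ hχ h
        apply hne
        have h5 := hsub h (hmem B.1 B.2.1 χ hχ (rep B) (hrep B) C.out)
        rw [sub_sub_cancel] at h5
        rw [(hq (lam B C)).2 h5, zero_mul]
    rw [← h1]
    rw [Finset.sum_subtype (Finset.univ.filter _) (p := fun C : ConjClasses G => ∃ g : G, ConjClasses.mk g = C ∧ Cfsg.IsPRegular p g ∧ d ≤ (Nat.card (Subgroup.centralizer ({g} : Set G))).factorization p)
      (by intro x; simp)]
  have hrank : Fintype.card 𝓑 ≤ Fintype.card 𝓒 := by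
    have h1 := Matrix.rank_mul_le_left Λ A
    rw [hΛA, Matrix.rank_one] at h1
    exact h1.trans (Matrix.rank_le_card_width Λ)
  rw [Nat.card_eq_fintype_card, Nat.card_eq_fintype_card]
  exact hrank

end Cfsg.Agent.S0962
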