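import Cfsg.Statements.S1305
import Cfsg.Agent.S1301
import Cfsg.Agent.S1276
import Cfsg.Agent.SignalizersComponents.EvenComponent
import Cfsg.Agent.SignalizersComponents.MaxComponent

set_option autoImplicit false
open Cfsg

namespace Cfsg.Agent.S1305

open Subgroup Cfsg.Agent.SignalizersComponents Cfsg.Agent.SignalizersComponents.Components
open Cfsg.Agent.SignalizersComponents.MaxComponent

/-- Under the B-property with trivial core, the 2-layer of an involution centralizer is its layer. -/
theorem pLayer_le_layer {G : Type*} [Group G] [Finite G] (hO : Cfsg.oddCore G = ⊥)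
    (hB : Cfsg.HasBProperty G) {b : G} (hb : orderOf b = 2) :
    Cfsg.pLayer 2 ↥(Subgroup.centralizer ({b} : Set G)) ≤
      Cfsg.layer ↥(Subgroup.centralizer ({b} : Set G)) := by
  have hp : Fact (Nat.Prime 2) := ⟨Nat.prime_two⟩
  have h1 := hB b hb
  rw [hO, le_bot_iff, Subgroup.map_eq_bot_iff_of_injective _ (Subgroup.subtype_injective _)] at h1
  refine sSup_le fun J hJ => ?_
  have hJ' : IsPComponent 2 J := hJ
  refine component_le_layer ⟨hJ'.1, ?_⟩
  rw [Cfsg.Agent.S1276.result J hJ']
  rw [eq_bot_iff, ← h1]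
  refine Subgroup.commutator_mono (Lib.PComponents.pcomp_le_pLayer hJ') ?_
  exact Lib.PComponents.map_pPrimeCore_le_of_isSubnormal hJ'.1

theorem pRankLE_of_mulEquiv {A B : Type*} [Group A] [Group B] (e : A ≃* B) {p k : ℕ}
    (h : PRankLE p k A) : PRankLE p k B := by
  intro X hX hXp
  have h1 := h (X.map e.symm.toMonoidHom) ?_ ?_
  · rwa [show Nat.card (X.map e.symm.toMonoidHom) = Nat.card X from
      (Nat.card_congr (X.equivMapOfInjective e.symm.toMonoidHom e.symm.injective).toEquiv).symm] at h1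
  · refine ⟨⟨?_⟩⟩
    rintro ⟨_, x, hx, rfl⟩ ⟨_, y, hy, rfl⟩
    have h2 : x * y = y * x := congrArg Subtype.val (hX.is_comm.comm (⟨x, hx⟩ : ↥X) ⟨y, hy⟩)
    apply Subtype.ext
    show e.symm.toMonoidHom x * e.symm.toMonoidHom y = e.symm.toMonoidHom y * e.symm.toMonoidHom x
    rw [← map_mul, ← map_mul, h2]
  · rintro _ ⟨x, hx, rfl⟩
    rw [← map_pow, hXp x hx, map_one]

/-- Let G be a finite group of component type with the B-property and no nontrivial normal subgroup of odd order. Let a be an involution and K a component of C_G(a) such that (a) |K| is maximal among the orders of components of centralizers of involutions of G, (b) subject to (a) the 2-rank of the centralizer of K in C_G(a) is as large as possible, and (c) K has 2-rank at least 2. If B is an elementary abelian 2-subgroup of that centralizer of the largest possible order, then K is a component of C_G(b) for every non-identity b ∈ B. -/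
theorem result {G : Type*} [Group G] [Finite G] (hO : Cfsg.oddCore G = ⊥) (hB : Cfsg.HasBProperty G) (hct : Cfsg.IsComponentType G) (a : G) (ha : orderOf a = 2) (K : Subgroup G) (hKa : K ≤ Subgroup.centralizer ({a} : Set G)) (hK : Cfsg.IsComponent (K.subgroupOf (Subgroup.centralizer ({a} : Set G)))) (hmax : ∀ y : G, orderOf y = 2 → ∀ K' : Subgroup G, K' ≤ Subgroup.centralizer ({y} : Set G) → Cfsg.IsComponent (K'.subgroupOf (Subgroup.centralizer ({y} : Set G))) → Nat.card ↥K' ≤ Nat.card ↥K ∧ (Nat.card ↥K' = Nat.card ↥K → ∀ k : ℕ, Cfsg.PRankLE 2 k ↥(Subgroup.centralizer ({a} : Set G) ⊓ Subgroup.centralizer (K : Set G)) → Cfsg.PRankLE 2 k ↥(Subgroup.centralizer ({y} : Set G) ⊓ Subgroup.centralizer (K' : Set G)))) (hrk : ¬ Cfsg.PRankLE 2 1 ↥K) (B : Subgroup G) (hBle : B ≤ Subgroup.centralizer ({a} : Set G) ⊓ Subgroup.centralizer (K : Set G)) (hBel : Cfsg.IsElementaryAbelian 2 B) (hBmax : ∀ B' : Subgroup G, B' ≤ Subgroup.centralizer ({a} : Set G) ⊓ Subgroup.centralizer (K : Set G) → Cfsg.IsElementaryAbelian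 2 B' → Nat.card ↥B' ≤ Nat.card ↥B) (b : G) (hb : b ∈ B) (hb1 : b ≠ 1) : K ≤ Subgroup.centralizer ({b} : Set G) ∧ Cfsg.IsComponent (K.subgroupOf (Subgroup.centralizer ({b} : Set G))) := by
  have hp : Fact (Nat.Prime 2) := ⟨Nat.prime_two⟩
  have hb2 : orderOf b = 2 := orderOf_eq_prime (hBel.2 b hb) hb1
  obtain ⟨hba, hbK⟩ := Subgroup.mem_inf.mp (hBle hb)
  have hKb : K ≤ Subgroup.centralizer ({b} : Set G) := by
    intro k hk
    rw [Subgroup.mem_centralizer_iff]
    rintro _ rfl
    exact (Subgroup.mem_centralizer_iff.mp hbK k hk).symm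
  refine ⟨hKb, ?_⟩
  have haa : a * a = 1 := by
    have := pow_orderOf_eq_one a
    rwa [ha, pow_two] at this
  have hcB : ∀ x ∈ B, ∀ y ∈ B, x * y = y * x := fun x hx y hy =>
    congrArg Subtype.val (hBel.1.is_comm.comm (⟨x, hx⟩ : ↥B) ⟨y, hy⟩)
  have haC : a ∈ Subgroup.centralizer ({a} : Set G) ⊓ Subgroup.centralizer (K : Set G) := by
    refine Subgroup.mem_inf.mpr ⟨?_, ?_⟩
    · rw [Subgroup.mem_centralizer_iff]; rintro _ rfl; rfl
    · rw [Subgroup.mem_centralizer_iff]
      intro k hk
      exact (Subgroup.mem_centralizer_iff.mp (hKa hk) a rfl).symm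
  have hBac : ∀ x ∈ B, x * a = a * x := fun x hx =>
    (Subgroup.mem_centralizer_iff.mp (Subgroup.mem_inf.mp (hBle hx)).1 a rfl).symm
  -- `a` lies in `B`
  have haB : a ∈ B := by
    have hcl : B ≤ Subgroup.centralizer ((Subgroup.zpowers a : Subgroup G) : Set G) := by
      rw [Subgroup.le_centralizer_iff, Subgroup.zpowers_le, Subgroup.mem_centralizer_iff]
      exact hBac
    have hel : IsElementaryAbelian 2 (B ⊔ Subgroup.zpowers a) := by
      have hdec : ∀ x ∈ B ⊔ Subgroup.zpowers a, ∃ y ∈ B, ∃ z ∈ Subgroup.zpowers a, y * z = x :=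
        fun x hx => (CoprimeBasic.mem_sup_iff
          (show Subgroup.zpowers a ≤ normalizer (B : Set G) from
            (Subgroup.le_centralizer_iff.mp hcl).trans (centralizer_le_normalizer _)) x).mp hx
      have hz : ∀ z ∈ Subgroup.zpowers a, ∀ w ∈ Subgroup.zpowers a, Commute z w := by
        rintro _ ⟨i, rfl⟩ _ ⟨j, rfl⟩
        exact Commute.zpow_zpow_self a i j
      have hz2 : ∀ z ∈ Subgroup.zpowers a, z ^ 2 = 1 := by
        rintro _ ⟨i, rfl⟩
        show (a ^ i) ^ 2 = 1
        rw [← zpow_natCast, ← zpow_mul, mul_comm, zpow_mul, zpow_natCast, pow_two, haa, one_zpow]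
      have hbz : ∀ x ∈ B, ∀ z ∈ Subgroup.zpowers a, Commute x z := fun x hx z hz =>
        (Subgroup.mem_centralizer_iff.mp (hcl hx) z hz).symm
      refine ⟨⟨⟨?_⟩⟩, ?_⟩
      · rintro ⟨x, hx⟩ ⟨y, hy⟩
        obtain ⟨x1, hx1, x2, hx2, rfl⟩ := hdec x hx
        obtain ⟨y1, hy1, y2, hy2, rfl⟩ := hdec y hy
        apply Subtype.ext
        show x1 * x2 * (y1 * y2) = y1 * y2 * (x1 * x2)
        have c1 : Commute x1 y1 := hcB x1 hx1 y1 hy1
        have c2 : Commute x1 y2 := hbz x1 hx1 y2 hy2
        have c3 : Commute x2 y1 := (hbz y1 hy1 x2 hx2).symm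
        have c4 : Commute x2 y2 := hz x2 hx2 y2 hy2
        exact ((c1.mul_right c2).mul_left (c3.mul_right c4)).eq
      · intro x hx
        obtain ⟨x1, hx1, x2, hx2, rfl⟩ := hdec x hx
        rw [(hbz x1 hx1 x2 hx2).mul_pow, hBel.2 x1 hx1, hz2 x2 hx2, one_mul]
    have h1 := hBmax (B ⊔ Subgroup.zpowers a) (sup_le hBle (by rwa [Subgroup.zpowers_le])) hel
    have h2 : B = B ⊔ Subgroup.zpowers a := Subgroup.eq_of_le_of_card_ge le_sup_left h1
    rw [h2]
    exact Subgroup.mem_sup_right (Subgroup.mem_zpowers a)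
  -- the group `H = C_G(b)`
  have hab : a ∈ Subgroup.centralizer ({b} : Set G) := by
    rw [Subgroup.mem_centralizer_iff]
    rintro _ rfl
    exact hcB _ hb a haB
  have hBb : B ≤ Subgroup.centralizer ({b} : Set G) := by
    intro x hx
    rw [Subgroup.mem_centralizer_iff]
    rintro _ rfl
    exact hcB _ hb x hx
  let a' : ↥(Subgroup.centralizer ({b} : Set G)) := ⟨a, hab⟩
  have ha'a' : a' * a' = 1 := Subtype.ext haa
  have ha' : orderOf a' = 2 := by rw [← ha]; exact Subgroup.orderOf_mk a hab
  have hcardL : Nat.card (K.subgroupOf (Subgroup.centralizer ({b} : Set G))) = Nat.card K :=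
    Nat.card_congr (Subgroup.subgroupOfEquivOfLe hKb).toEquiv
  have hLt : K.subgroupOf (Subgroup.centralizer ({b} : Set G)) ≤
      Subgroup.centralizer ({a'} : Set ↥(Subgroup.centralizer ({b} : Set G))) := by
    intro x hx
    rw [Subgroup.mem_centralizer_iff]
    rintro _ rfl
    apply Subtype.ext
    exact Subgroup.mem_centralizer_iff.mp (hKa (show (x : G) ∈ K from hx)) a rfl
  have hL : IsComponent ((K.subgroupOf (Subgroup.centralizer ({b} : Set G))).subgroupOf
      (Subgroup.centralizer ({a'} : Set ↥(Subgroup.centralizer ({b} : Set G))))) := by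
    constructor
    · let ψ : ↥(Subgroup.centralizer ({a'} : Set ↥(Subgroup.centralizer ({b} : Set G)))) →*
          ↥(Subgroup.centralizer ({a} : Set G)) :=
        { toFun := fun x => ⟨x.1.1, by
            rw [Subgroup.mem_centralizer_iff]
            rintro _ rfl
            exact congrArg Subtype.val (Subgroup.mem_centralizer_iff.mp x.2 a' rfl)⟩
          map_one' := rfl
          map_mul' := fun _ _ => rfl }
      exact hK.1.comap ψ
    · have e1 := Subgroup.subgroupOfEquivOfLe hKa
      have e2 := Subgroup.subgroupOfEquivOfLe hKb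
      have e3 := Subgroup.subgroupOfEquivOfLe hLt
      exact isQuasisimple_of_mulEquiv (e1.trans (e2.symm.trans e3.symm)) hK.2
  -- `K` has even order
  have heven : 2 ∣ Nat.card K := by
    by_contra hodd
    apply hrk
    intro A hA1 hA2
    have h1 : A = ⊥ := by
      rw [eq_bot_iff]
      intro x hx
      rw [Subgroup.mem_bot]
      by_contra hx1
      apply hodd
      have h2 : orderOf x = 2 := orderOf_eq_prime (hA2 x hx) hx1
      rw [← h2]
      exact orderOf_dvd_natCard x
    rw [h1, Subgroup.card_bot]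
    norm_num
  have hLE : K.subgroupOf (Subgroup.centralizer ({b} : Set G)) ≤
      Cfsg.layer ↥(Subgroup.centralizer ({b} : Set G)) := by
    have heven' : 2 ∣ Nat.card ((K.subgroupOf (Subgroup.centralizer ({b} : Set G))).subgroupOf
      (Subgroup.centralizer ({a'} : Set ↥(Subgroup.centralizer ({b} : Set G))))) := by
      rw [Nat.card_congr (Subgroup.subgroupOfEquivOfLe hLt).toEquiv, hcardL]
      exact heven
    have h2 := EvenComponent.isPComponent_of_isComponent hL heven'
    have hT : IsPGroup 2 (Subgroup.zpowers a') := by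
      apply IsPGroup.of_card (n := 1)
      rw [Nat.card_zpowers, ha', pow_one]
    have h3 := Cfsg.Agent.S1301.result (Subgroup.zpowers a') hT
    have hc : Subgroup.centralizer ((Subgroup.zpowers a' : Subgroup _) :
          Set ↥(Subgroup.centralizer ({b} : Set G))) =
        Subgroup.centralizer ({a'} : Set ↥(Subgroup.centralizer ({b} : Set G))) := by
      rw [Subgroup.zpowers_eq_closure, Subgroup.centralizer_closure]
    rw [hc] at h3
    refine le_trans ?_ (h3.trans (pLayer_le_layer hO hB hb2))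
    have h4 := Subgroup.map_mono (f := (Subgroup.centralizer ({a'} : Set ↥(Subgroup.centralizer ({b} : Set G)))).subtype)
      (Lib.PComponents.pcomp_le_pLayer h2)
    rwa [Subgroup.map_subgroupOf_eq_of_le hLt] at h4
  obtain ⟨D, hD, hcase⟩ := le_component_or_diag a' ha'a' _ hLt hL hLE
  -- `D` as a subgroup of `G`
  have hDsub : (D.map (Subgroup.centralizer ({b} : Set G)).subtype).subgroupOf
      (Subgroup.centralizer ({b} : Set G)) = D :=
    Subgroup.comap_map_eq_self_of_injective (Subgroup.subtype_injective _) D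
  have hDcard : Nat.card (D.map (Subgroup.centralizer ({b} : Set G)).subtype) = Nat.card D :=
    (Nat.card_congr (D.equivMapOfInjective _ (Subgroup.subtype_injective _)).toEquiv).symm
  obtain ⟨hm1, hm2⟩ := hmax b hb2 (D.map (Subgroup.centralizer ({b} : Set G)).subtype)
    (Subgroup.map_subtype_le D) (by rw [hDsub]; exact hD)
  rw [hDcard] at hm1 hm2
  rcases hcase with hle | ⟨hDt, δ, hδ, hLδ⟩
  · have h1 : K.subgroupOf (Subgroup.centralizer ({b} : Set G)) = D :=
      Subgroup.eq_of_le_of_card_ge hle (by rw [hcardL]; exact hm1)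
    rw [h1]; exact hD
  exfalso
  -- the diagonal case
  have hc1 : Nat.card K ≤ Nat.card D := by
    rw [← hcardL, hLδ]
    exact Nat.card_le_card_of_surjective δ.rangeRestrict δ.rangeRestrict_surjective
  have hc2 : Nat.card D = Nat.card K := le_antisymm hm1 hc1
  have hinj : Function.Injective δ := by
    have h1 : Function.Bijective δ.rangeRestrict :=
      Function.Surjective.bijective_of_nat_card_le δ.rangeRestrict_surjective (by
        rw [← hLδ, hcardL, hc2])
    intro x y hxy
    exact h1.1 (Subtype.ext hxy)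
  have hrkL : ¬ PRankLE 2 1 ↥(K.subgroupOf (Subgroup.centralizer ({b} : Set G))) := fun h =>
    hrk (pRankLE_of_mulEquiv (Subgroup.subgroupOfEquivOfLe hKb) h)
  have hBel' : IsElementaryAbelian 2 (B.subgroupOf (Subgroup.centralizer ({b} : Set G))) := by
    refine ⟨⟨⟨?_⟩⟩, ?_⟩
    · rintro ⟨x, hx⟩ ⟨y, hy⟩
      apply Subtype.ext
      apply Subtype.ext
      exact hcB x hx y hy
    · intro x hx
      exact Subtype.ext (hBel.2 x hx)
  have hBL : B.subgroupOf (Subgroup.centralizer ({b} : Set G)) ≤
      Subgroup.centralizer ((K.subgroupOf (Subgroup.centralizer ({b} : Set G)) : Subgroup _) :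
        Set ↥(Subgroup.centralizer ({b} : Set G))) := by
    intro x hx
    rw [Subgroup.mem_centralizer_iff]
    intro y hy
    apply Subtype.ext
    exact Subgroup.mem_centralizer_iff.mp (Subgroup.mem_inf.mp (hBle (show (x : G) ∈ B from hx))).2 _ hy
  obtain ⟨E, hE1, hE2, hE3⟩ := exists_larger a' ha'a' hD hDt δ hδ hLδ hinj hrkL hBel'
    (show a' ∈ B.subgroupOf (Subgroup.centralizer ({b} : Set G)) from haB) hBL
  rw [Nat.card_congr (Subgroup.subgroupOfEquivOfLe hBb).toEquiv] at hE3
  -- compare the ranks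
  obtain ⟨k, hk⟩ := IsPGroup.iff_card.mp (show IsPGroup 2 B from fun x =>
    ⟨1, Subtype.ext (by simpa using hBel.2 x x.2)⟩)
  have hr1 : PRankLE 2 k ↥(Subgroup.centralizer ({a} : Set G) ⊓ Subgroup.centralizer (K : Set G)) := by
    intro A hA1 hA2
    rw [← hk]
    have h1 := hBmax (A.map (Subgroup.centralizer ({a} : Set G) ⊓
      Subgroup.centralizer (K : Set G)).subtype) (Subgroup.map_subtype_le A) ⟨⟨⟨?_⟩⟩, ?_⟩
    · rwa [show Nat.card (A.map (Subgroup.centralizer ({a} : Set G) ⊓
        Subgroup.centralizer (K : Set G)).subtype) = Nat.card A from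
        (Nat.card_congr (A.equivMapOfInjective _ (Subgroup.subtype_injective _)).toEquiv).symm] at h1
    · rintro ⟨_, x, hx, rfl⟩ ⟨_, y, hy, rfl⟩
      have h2 : x * y = y * x := congrArg Subtype.val (hA1.is_comm.comm (⟨x, hx⟩ : ↥A) ⟨y, hy⟩)
      have h3 : (x : G) * y = y * x := congrArg Subtype.val h2
      exact Subtype.ext h3
    · rintro _ ⟨x, hx, rfl⟩
      rw [← map_pow, hA2 x hx, map_one]
  have hr2 := hm2 hc2 k hr1
  have hE' : E.map (Subgroup.centralizer ({b} : Set G)).subtype ≤
      Subgroup.centralizer ({b} : Set G) ⊓ Subgroup.centralizer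
        ((D.map (Subgroup.centralizer ({b} : Set G)).subtype : Subgroup G) : Set G) := by
    refine le_inf (Subgroup.map_subtype_le E) ?_
    rintro _ ⟨x, hx, rfl⟩
    rw [Subgroup.mem_centralizer_iff]
    rintro _ ⟨y, hy, rfl⟩
    exact congrArg Subtype.val (Subgroup.mem_centralizer_iff.mp (hE2 hx) y hy)
  have hr3 := hr2 ((E.map (Subgroup.centralizer ({b} : Set G)).subtype).subgroupOf _) ⟨⟨?_⟩⟩ ?_
  · rw [Nat.card_congr (Subgroup.subgroupOfEquivOfLe hE').toEquiv,
      show Nat.card (E.map (Subgroup.centralizer ({b} : Set G)).subtype) = Nat.card E from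
        (Nat.card_congr (E.equivMapOfInjective _ (Subgroup.subtype_injective _)).toEquiv).symm,
      ← hk] at hr3
    omega
  · rintro ⟨x, hx⟩ ⟨y, hy⟩
    apply Subtype.ext
    apply Subtype.ext
    obtain ⟨x', hx', hxx⟩ := hx
    obtain ⟨y', hy', hyy⟩ := hy
    show (x : G) * (y : G) = y * x
    have h1 : x' * y' = y' * x' :=
      congrArg Subtype.val (hE1.1.is_comm.comm (⟨x', hx'⟩ : ↥E) ⟨y', hy'⟩)
    have h2 : (x : G) = (x' : G) := hxx.symm
    have h3 : (y : G) = (y' : G) := hyy.symm
    rw [h2, h3]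
    exact congrArg Subtype.val h1
  · intro x hx
    obtain ⟨x', hx', hxx⟩ := hx
    apply Subtype.ext
    show (x : G) ^ 2 = 1
    have h2 : (x : G) = (x' : G) := hxx.symm
    rw [h2]
    exact congrArg Subtype.val (hE1.2 x' hx')

end Cfsg.Agent.S1305
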