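import Cfsg.Statements.S1760
import Cfsg.Agent.WCLarge.Main

set_option autoImplicit false
open Cfsg

namespace Cfsg.Agent.S1760

/-- Let G be a finite group with no nontrivial normal subgroup of odd order, and let z be an involution of G such that Q, the generalized Fitting subgroup of the centralizer C of z, is a 2-group of symplectic type (every characteristic abelian subgroup of Q is cyclic); suppose moreover that Q is extraspecial of order at least 32. Then one of the following holds: z is central in G; or some conjugate of z other than z lies in Q; or the normal closure of z in G equals the generalized Fitting subgroup of G and is isomorphic to a projective special unitary group of dimension at least 4 over the field with 4 elements, to the second Conway group, or to the projective special linear group of dimension 4 over the field with 3 elements. -/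
theorem result {G : Type*} [Group G] [Finite G] (hO : Cfsg.oddCore G = ⊥) (z : G) (hz : orderOf z = 2) (hQ : Cfsg.IsOfSymplecticType ↥(Cfsg.generalizedFittingSubgroup ↥(Subgroup.centralizer ({z} : Set G)))) (hE : Cfsg.IsExtraspecial 2 ↥(Cfsg.generalizedFittingSubgroup ↥(Subgroup.centralizer ({z} : Set G))))
    (h32 : 32 ≤ Nat.card ↥(Cfsg.generalizedFittingSubgroup ↥(Subgroup.centralizer ({z} : Set G)))) :
    z ∈ Subgroup.center G ∨
      (∃ g : G, g * z * g⁻¹ ≠ z ∧ g * z * g⁻¹ ∈ (Cfsg.generalizedFittingSubgroup ↥(Subgroup.centralizer ({z} : Set G))).map (Subgroup.centralizer ({z} : Set G)).subtype) ∨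
      (Subgroup.normalClosure ({z} : Set G) = Cfsg.generalizedFittingSubgroup G ∧
        ((∃ (F : Type) (_ : Field F) (_ : Fintype F), Fintype.card F = 4 ∧ ∃ m : ℕ, 4 ≤ m ∧ Nonempty (↥(Cfsg.generalizedFittingSubgroup G) ≃* Cfsg.PSU m F 2)) ∨
          Cfsg.Spor.IsoCo2 ↥(Cfsg.generalizedFittingSubgroup G) ∨
          (∃ (F : Type) (_ : Field F) (_ : Fintype F), Fintype.card F = 3 ∧ Nonempty (↥(Cfsg.generalizedFittingSubgroup G) ≃* Matrix.ProjectiveSpecialLinearGroup (Fin 4) F)))) := by
  by_cases hcen : z ∈ Subgroup.center G
  · exact Or.inl hcen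
  · right
    by_cases hwc : ∃ g : G, g * z * g⁻¹ ≠ z ∧ g * z * g⁻¹ ∈ (Cfsg.generalizedFittingSubgroup ↥(Subgroup.centralizer ({z} : Set G))).map (Subgroup.centralizer ({z} : Set G)).subtype
    · exact Or.inl hwc
    · right
      exact Cfsg.Agent.WCLarge.main hO z hz hE h32 hcen fun g hg => by
        by_contra hne
        exact hwc ⟨g, hne, hg⟩

end Cfsg.Agent.S1760
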