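import Cfsg.Statements.S1819
import Cfsg.Agent.QTUnique.Inst
import Cfsg.Agent.QTKE.Final
import Cfsg.Agent.S1765

set_option autoImplicit false
open Cfsg

namespace Cfsg.Agent.S1819

/-- Quasithin groups with a unique maximal 2-local over a Sylow 2-subgroup. Let G be a non-abelian finite simple QTKE-group (quasithin, every proper subgroup a K-group, of even characteristic), let T be a Sylow 2-subgroup of G, and suppose M is the unique maximal 2-local subgroup of G containing T. Then G is a Bender group — isomorphic to L₂(2ⁿ) or U₃(2ⁿ) with n ≥ 2, or to a Suzuki group Sz(2^(2m+1)) with m ≥ 1 — or G is isomorphic to L₂(p) for a prime p > 7 of the form 2^k + 1 or 2^k − 1, to L₃(3), or to the Mathieu group M₁₁. -/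
theorem result {G : Type*} [Group G] [Finite G] [IsSimpleGroup G]
    (hG : ¬ IsMulCommutative G) (hQ : Cfsg.IsQTKE G) (T : Sylow 2 G) (M : Subgroup G)
    (hM : Cfsg.maxTwoLocalsContaining (T : Subgroup G) = {M}) :
    Cfsg.IsBenderGroup G ∨
      (∃ (F : Type) (_ : Field F) (_ : Fintype F), Cfsg.IsTwoPowerNeighbourPrime (Fintype.card F) ∧
          7 < Fintype.card F ∧ Nonempty (G ≃* Matrix.ProjectiveSpecialLinearGroup (Fin 2) F)) ∨
      (∃ (F : Type) (_ : Field F) (_ : Fintype F), Fintype.card F = 3 ∧
          Nonempty (G ≃* Matrix.ProjectiveSpecialLinearGroup (Fin 3) F)) ∨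
      Cfsg.Spor.IsoM11 G :=
  QTUnique.concl_of (QTUnique.inputs_of fun _ _ _ _ h1 h2 h3 => S1765.result h1 h2 h3) QTKE.rows
    QTUnique.nuRows hG hQ T M hM

end Cfsg.Agent.S1819
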