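import Cfsg.Statements.S1820
import Cfsg.Agent.QTComp.Inputs

set_option autoImplicit false
open Cfsg

namespace Cfsg.Agent.S1820

/-- The structure of the 𝒞-components of subgroups with nontrivial 2-core in a simple QTKE-group. Let G be a non-abelian finite simple QTKE-group and H a subgroup of G with O₂(H) ≠ 1. Then (1) the 𝒞-components of H (the minimal nontrivial perfect subnormal subgroups of H) generate H^∞, the largest perfect subgroup of H; (2) for distinct 𝒞-components L₁, L₂ of H one has [L₁, L₂] ≤ O₂(L₁) ∩ O₂(L₂) ≤ O₂(H); and (3) each 𝒞-component L of H is either normal in H, or has exactly two conjugates under H and L/O₂(L) is isomorphic to L₂(2ⁿ), to a Suzuki group, to L₂(p) for an odd prime p, or to the first Janko group J₁. -/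
theorem result {G : Type*} [Group G] [Finite G] [IsSimpleGroup G]
    (hG : ¬ IsMulCommutative G) (hQ : Cfsg.IsQTKE G) (H : Subgroup G) (hH : H ∈ Cfsg.calH G) :
    sSup (Cfsg.calC ↥H) = Cfsg.perfectCore ↥H ∧
    (∀ L₁ ∈ Cfsg.calC ↥H, ∀ L₂ ∈ Cfsg.calC ↥H, L₁ ≠ L₂ →
        ⁅L₁, L₂⁆ ≤ (Cfsg.pCore 2 ↥L₁).map L₁.subtype ⊓ (Cfsg.pCore 2 ↥L₂).map L₂.subtype ∧
        (Cfsg.pCore 2 ↥L₁).map L₁.subtype ⊓ (Cfsg.pCore 2 ↥L₂).map L₂.subtype ≤ Cfsg.pCore 2 ↥H) ∧
    (∀ L ∈ Cfsg.calC ↥H, L.Normal ∨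
        ((Subgroup.normalizer (L : Set ↥H)).index = 2 ∧
          ((∃ (F : Type) (_ : Field F) (_ : Fintype F), CharP F 2 ∧
              Nonempty (↥L ⧸ Cfsg.pCore 2 ↥L ≃* Matrix.ProjectiveSpecialLinearGroup (Fin 2) F)) ∨
            Cfsg.Lie.IsoSuzuki (↥L ⧸ Cfsg.pCore 2 ↥L) ∨
            (∃ (F : Type) (_ : Field F) (_ : Fintype F), (Fintype.card F).Prime ∧ Fintype.card F ≠ 2 ∧
              Nonempty (↥L ⧸ Cfsg.pCore 2 ↥L ≃* Matrix.ProjectiveSpecialLinearGroup (Fin 2) F)) ∨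
            Cfsg.Spor.IsoJ1 (↥L ⧸ Cfsg.pCore 2 ↥L)))) := by
  have h := QTComp.Main.of_calH hG hQ.1 hQ.2.1 hH
  exact QTComp.Main.main QTComp.Inputs.ft QTComp.Inputs.sch QTComp.Inputs.cyc h.1 h.2

end Cfsg.Agent.S1820
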