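import Cfsg.Statements.S1821
import Cfsg.Agent.S0205
import Cfsg.Agent.Schreier.Assembly
import Cfsg.Agent.QTComp.Main
import Cfsg.Agent.QTUniq.Main

set_option autoImplicit false
open Cfsg

namespace Cfsg.Agent.S1821

universe u

/-- the odd order theorem -/
theorem ft : Cfsg.Agent.QTComp.Quat.FT.{0} := fun X _ _ h => Cfsg.Agent.S0205.result (G := X) h

/-- the properties of 𝒞-components used (S1820, parts (1), (2) and the first half of (3)) -/
theorem cc {G : Type u} [Group G] [Finite G] [IsSimpleGroup G]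
    (hG : ¬ IsMulCommutative G) (hQ : Cfsg.IsQTKE G) (H : Subgroup G) (hH : H ∈ Cfsg.calH G) :
    Cfsg.Agent.QTUniq.Main.CC ↥H := by
  obtain ⟨hr, hK⟩ := Cfsg.Agent.QTComp.Main.of_calH hG hQ.1 hQ.2.1 hH
  refine ⟨Cfsg.Agent.QTComp.Main.one ft Cfsg.Agent.Schreier.Assembly.known.{u} hr hK,
    fun L₁ hL₁ L₂ hL₂ hne => ?_, fun L hL => ?_⟩
  · have h := Cfsg.Agent.QTComp.Two.commutator_le ft hr hL₁ hL₂ hne
    exact h.1.trans h.2
  · by_cases hn : L.Normal
    · exact Or.inl hn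
    · exact Or.inr (Cfsg.Agent.QTComp.Three.three ft hr hL hn).1

/-- Nonsolvable uniqueness groups in a simple QTKE-group. Let G be a non-abelian finite simple QTKE-group, T a Sylow 2-subgroup of G, and L a maximal member of ℒ(G, T) (so L is a 𝒞-component of ⟨L, T⟩, T is Sylow in ⟨L, T⟩ and O₂(⟨L, T⟩) ≠ 1, and L is maximal among such subgroups). Then (1) L is a 𝒞-component of every subgroup H of G with O₂(H) ≠ 1 containing ⟨L, T⟩; (2) F*(L) = O₂(L); and (3) N_G(⟨L^T⟩) is the unique maximal 2-local subgroup of G containing ⟨L, T⟩, so that ⟨L, T⟩ is a uniqueness subgroup. -/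
theorem result {G : Type*} [Group G] [Finite G] [IsSimpleGroup G]
    (hG : ¬ IsMulCommutative G) (hQ : Cfsg.IsQTKE G) (T : Sylow 2 G) (L : Subgroup G)
    (hL : L ∈ Cfsg.calLMax (T : Subgroup G)) :
    (∀ H ∈ Cfsg.calHOver (L ⊔ (T : Subgroup G)), L.subgroupOf H ∈ Cfsg.calC ↥H) ∧
    Cfsg.generalizedFittingSubgroup ↥L = Cfsg.pCore 2 ↥L ∧
    Cfsg.maxTwoLocalsContaining (L ⊔ (T : Subgroup G)) =
      {Subgroup.normalizer (Cfsg.conjClosure L (T : Subgroup G) : Set G)} :=
  Cfsg.Agent.QTUniq.Main.main (fun _ _ _ h => Cfsg.Agent.S0205.result h) hQ.2.2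
    (fun H hH => cc hG hQ H hH) T L hL

end Cfsg.Agent.S1821
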