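import Cfsg.Statements.S1823
import Cfsg.Agent.PushGen.Red

set_option autoImplicit false
open Cfsg

namespace Cfsg.Agent.S1823

/-- A common nontrivial normal 2-subgroup for a pair of 2-local-type subgroups over a Sylow 2-subgroup of a simple QTKE-group. Let G be a non-abelian finite simple QTKE-group and T a Sylow 2-subgroup of G. Let M₀ and H be subgroups of G containing T with O₂(M₀) ≠ 1 and O₂(H) ≠ 1, such that T lies in a unique maximal subgroup of H. Let R be a nontrivial subgroup of T that is a Sylow 2-subgroup of O²(H)R and is normalized by M₀. Then some nontrivial subgroup R₀ of R is normalized by both M₀ and H (that is, R₀ is normal in ⟨M₀, H⟩). -/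
theorem result {G : Type*} [Group G] [Finite G] [IsSimpleGroup G]
    (hG : ¬ IsMulCommutative G) (hQ : Cfsg.IsQTKE G) (T : Sylow 2 G) (M₀ H : Subgroup G)
    (hM₀ : M₀ ∈ Cfsg.calHOver (T : Subgroup G)) (hH : H ∈ Cfsg.calHOver (T : Subgroup G))
    (hU : ∃! K : Subgroup ↥H, IsCoatom K ∧ (T : Subgroup G).subgroupOf H ≤ K)
    (R : Subgroup G) (hR : R ≠ ⊥) (hRT : R ≤ (T : Subgroup G))
    (hRS : ∃ P : Sylow 2 ↥(Cfsg.oddGenerated H ⊔ R),
      (P : Subgroup ↥(Cfsg.oddGenerated H ⊔ R)) = R.subgroupOf (Cfsg.oddGenerated H ⊔ R))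
    (hRM : M₀ ≤ Subgroup.normalizer (R : Set G)) :
    ∃ R₀ : Subgroup G, R₀ ≠ ⊥ ∧ R₀ ≤ R ∧ M₀ ⊔ H ≤ Subgroup.normalizer (R₀ : Set G) := by
  have hTH : (T : Subgroup G) ≤ H := hH.2
  have hX : R ≤ Cfsg.oddGenerated H ⊔ R := le_sup_right
  refine Cfsg.Agent.PushGen.main hQ.2.2 T hM₀.2 hTH ?_
    (Cfsg.Agent.PushGen.exists_max hU) hR hRT ?_ hRM
  · intro h
    apply hH.1
    exact (Subgroup.map_eq_bot_iff_of_injective _ H.subtype_injective).1 h
  · refine Cfsg.Agent.ZN.ChoiceSit.syl_iff.2 ?_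
    obtain ⟨P, hP⟩ := hRS
    refine ⟨P, ?_⟩
    change (P : Subgroup ↥(Cfsg.oddGenerated H ⊔ R)).map (Cfsg.oddGenerated H ⊔ R).subtype = R
    rw [hP, Subgroup.subgroupOf_map_subtype, inf_eq_left.2 hX]

end Cfsg.Agent.S1823
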