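import Cfsg.Statements.S1824
import Cfsg.Agent.QrcE.Fin
import Cfsg.Agent.Qrc.DClass
import Cfsg.Agent.Mrg.Omega.FFBr.Final

set_option autoImplicit false
open Cfsg

namespace Cfsg.Agent.S1824

/-- The qrc-lemma in the form used for simple QTKE-groups. Let G be a non-abelian finite simple QTKE-group, T a Sylow 2-subgroup of G and M a maximal 2-local subgroup of G containing T. Let T ≤ M₀ ≤ M, let H be a minimal member of the set of subgroups of G with nontrivial 2-core that contain T and are not contained in M, and let V be a 2-reduced elementary abelian normal 2-subgroup of M₀ with O₂(M₀) = C_T(V). Suppose H ∩ M normalizes O²(M₀) or normalizes V. Then one of the following holds: (1) some nontrivial subgroup of O₂(M₀) is normalized by both M₀ and H; (2) V ≰ O₂(H) and q̂(M₀/C_{M₀}(V), V) ≤ 2; (3) q(M₀/C_{M₀}(V), V) ≤ 2. Here q (resp. q̂) ≤ 2 means that some subgroup of M₀ inducing a nontrivial elementary abelian 2-group A on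 V acts quadratically (resp. cubically) on V with |V : C_V(A)| ≤ |A|². -/
theorem result {G : Type*} [Group G] [Finite G] [IsSimpleGroup G]
    (hG : ¬ IsMulCommutative G) (hQ : Cfsg.IsQTKE G) (T : Sylow 2 G) (M M₀ H V : Subgroup G)
    (hM : M ∈ Cfsg.maxTwoLocalsContaining (T : Subgroup G))
    (hTM₀ : (T : Subgroup G) ≤ M₀) (hM₀M : M₀ ≤ M) (hH : H ∈ Cfsg.calHMin (T : Subgroup G) M)
    (hV : V ∈ Cfsg.calR2 M₀)
    (hR : (Cfsg.pCore 2 ↥M₀).map M₀.subtype = (T : Subgroup G) ⊓ Subgroup.centralizer (V : Set G))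
    (hI : H ⊓ M ≤ Subgroup.normalizer (Cfsg.oddGenerated M₀ : Set G) ∨
      H ⊓ M ≤ Subgroup.normalizer (V : Set G)) :
    (∃ R₀ : Subgroup G, R₀ ≠ ⊥ ∧ R₀ ≤ (Cfsg.pCore 2 ↥M₀).map M₀.subtype ∧
        M₀ ⊔ H ≤ Subgroup.normalizer (R₀ : Set G)) ∨
      (¬ V ≤ (Cfsg.pCore 2 ↥H).map H.subtype ∧ Cfsg.CubicParamLE M₀ V 2) ∨
      Cfsg.QuadParamLE M₀ V 2 := by
  exact Cfsg.Agent.QrcE.qrc hQ.2.2 Cfsg.Agent.Omega.FFBr.aStmt
    (fun _ _ _ _ _ _ h hc => h.class_two' Cfsg.Agent.Omega.FFBr.aStmt hc)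
    T hTM₀ hM₀M hH hV.1 hV.2.1 hV.2.2.1 hR hI

end Cfsg.Agent.S1824
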