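import Cfsg.Statements.S1825
import Cfsg.Agent.QTNorm.Main
import Cfsg.Agent.S1816

set_option autoImplicit false
open Cfsg

namespace Cfsg.Agent.S1825

/-- Normalizers of uniqueness groups contain the Sylow 2-normalizer, in a simple QTKE-group. Let G be a non-abelian finite simple QTKE-group, T a Sylow 2-subgroup of G, and M a maximal 2-local subgroup of G containing T. Suppose that either (1) M contains some maximal member L of ℒ(G, T) with L/O₂(L) quasisimple, or (2) M contains some member X of Ξ*(G, T). Then N_G(T) ≤ M. -/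
theorem result {G : Type*} [Group G] [Finite G] [IsSimpleGroup G]
    (hG : ¬ IsMulCommutative G) (hQ : Cfsg.IsQTKE G) (T : Sylow 2 G) (M : Subgroup G)
    (hM : M ∈ Cfsg.maxTwoLocalsContaining (T : Subgroup G))
    (h : (∃ L ∈ Cfsg.calLMax (T : Subgroup G), Cfsg.IsQuasisimple (↥L ⧸ Cfsg.pCore 2 ↥L) ∧ L ≤ M) ∨
      (∃ X ∈ Cfsg.XiStar (T : Subgroup G), X ≤ M)) :
    Subgroup.normalizer ((T : Subgroup G) : Set G) ≤ M :=
  Cfsg.Agent.QTNorm.main hG hQ (Cfsg.Agent.S1816.result hG hQ) T M hM

end Cfsg.Agent.S1825
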